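import Cfsg.Agent.H992.HT.Pair
import Cfsg.Agent.H749.TwoStab
import Cfsg.Agent.H477.HC.Stab

/-!
# S4933, Frobenius reciprocity for the Harish-Chandra induced characters (helper992)

`classInner_hc` : `⟨X, F.hc c (psf F W₀ ψ₁)⟩ = ⟨X | stabW W₀, (flagTerm c · W₀) ψ₁⟩`;
`hc_one` : the degree;
`pair_hset`, `pair_hdeg` : the hypotheses `hset`, `hdeg` of `pair_degree`, `pair_vd` for `F.hc c (psf F W₀ ψ₁) = X₁ + X₂`.
-/

set_option autoImplicit false
set_option linter.unusedSectionVars false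

open Cfsg
open scoped ComplexConjugate

namespace Cfsg.Agent.H992.HT

open Cfsg.Agent.H53.HC Module Cfsg.Agent.Characters Cfsg.Agent.H477.HC Cfsg.Agent.H749.Two

universe u v w

variable {K : Type u} [Field K] [Finite K] {V : Type v} [AddCommGroup V] [Module K V] [Finite V]
  [FiniteDimensional K V] {F : CForm K V} {k : ℕ}

theorem stab_card {W₀ : Submodule K V} (hW₀ : W₀ ∈ F.Om k) :
    Nat.card F.iso = Nat.card (stabW F.iso.subtype W₀) * Nat.card (F.Om k) := by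
  rw [F.card_iso_eq hW₀, mul_comm]

/-- **Frobenius reciprocity** -/
theorem classInner_hc [Fintype (F.Om k)] [Fintype F.iso] {c : GL (Fin k) K → ℂ} (hcl : IsClassFunction _ c)
    {W₀ : Submodule K V} (hW₀ : W₀ ∈ F.Om k) [Fintype (stabW F.iso.subtype W₀)]
    {ψ₁ : stabW F.iso.subtype W₀ → ℂ} (hψ : IsClassFunction _ ψ₁) {X : F.iso → ℂ} (hX : IsClassFunction _ X) :
    classInner X (F.hc c (psf F W₀ ψ₁)) =
      classInner (fun g : stabW F.iso.subtype W₀ => X g) (fun g => flagTerm F.iso.subtype c g W₀ * ψ₁ g) := by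
  classical
  rw [Core.classInner_def, Core.classInner_def]
  have h1 : ∀ g : F.iso, X g * conj (F.hc c (psf F W₀ ψ₁) g) =
      ∑ W : F.Om k, X g * conj (flagTerm F.iso.subtype c g W.1 * psf F W₀ ψ₁ g W.1) := by
    intro g
    have : F.hc c (psf F W₀ ψ₁) g = ∑ W : F.Om k, flagTerm F.iso.subtype c g W.1 * psf F W₀ ψ₁ g W.1 := rfl
    rw [this, map_sum, Finset.mul_sum]
  rw [Finset.sum_congr rfl fun g _ => h1 g, Finset.sum_comm]
  have h2 : ∀ W : F.Om k, ∑ g : F.iso, X g * conj (flagTerm F.iso.subtype c g W.1 * psf F W₀ ψ₁ g W.1) =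
      ∑ g : F.iso, X g * conj (flagTerm F.iso.subtype c g W₀ * psf F W₀ ψ₁ g W₀) := by
    intro W
    obtain ⟨x, hx⟩ := F.trans_Om hW₀ W.2
    symm
    refine Fintype.sum_equiv (MulAut.conj x).toEquiv _ _ fun g => ?_
    have h3 : (MulAut.conj x).toEquiv g = x * g * x⁻¹ := rfl
    rw [h3, ← hx, flagTerm_conj F.iso.subtype hcl x g W₀, psf_conj hψ x g W₀, hX g x]
  rw [Finset.sum_congr rfl fun W _ => h2 W, Finset.sum_const, Finset.card_univ, ← Nat.card_eq_fintype_card,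
    nsmul_eq_mul]
  have h3 : ∑ g : F.iso, X g * conj (flagTerm F.iso.subtype c g W₀ * psf F W₀ ψ₁ g W₀) =
      ∑ g : stabW F.iso.subtype W₀, X g * conj (flagTerm F.iso.subtype c g W₀ * ψ₁ g) := by
    rw [← Finset.sum_filter_add_sum_filter_not Finset.univ (fun g : F.iso => g ∈ stabW F.iso.subtype W₀)]
    have h4 : ∑ g : F.iso with ¬ g ∈ stabW F.iso.subtype W₀,
        X g * conj (flagTerm F.iso.subtype c g W₀ * psf F W₀ ψ₁ g W₀) = 0 := by
      refine Finset.sum_eq_zero fun g hg => ?_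
      have h5 : ¬ W₀.map (F.iso.subtype g : V →ₗ[K] V) = W₀ := (Finset.mem_filter.1 hg).2
      unfold flagTerm
      rw [dif_neg h5, zero_mul, map_zero, mul_zero]
    rw [h4, add_zero]
    symm
    refine Finset.sum_bij (fun (g : stabW F.iso.subtype W₀) _ => (g : F.iso)) ?_ ?_ ?_ ?_
    · intro g _
      exact Finset.mem_filter.2 ⟨Finset.mem_univ _, g.2⟩
    · intro a _ b _ hab
      exact Subtype.ext hab
    · intro g hg
      exact ⟨⟨g, (Finset.mem_filter.1 hg).2⟩, Finset.mem_univ _, rfl⟩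
    · intro g _
      rw [psf_self hψ g]
  rw [h3, stab_card hW₀, Nat.cast_mul, mul_inv, mul_assoc, inv_mul_cancel_left₀]
  have : Nonempty (F.Om k) := ⟨⟨W₀, hW₀⟩⟩
  exact Nat.cast_ne_zero.2 Nat.card_pos.ne'

/-- the degree -/
theorem hc_one [Fintype (F.Om k)] {c : GL (Fin k) K → ℂ} (hcl : IsClassFunction _ c)
    {W₀ : Submodule K V} (hW₀ : W₀ ∈ F.Om k)
    {ψ₁ : stabW F.iso.subtype W₀ → ℂ} (hψ : IsClassFunction _ ψ₁) :
    F.hc c (psf F W₀ ψ₁) 1 =
      (Nat.card (F.Om k) : ℂ) * (flagTerm F.iso.subtype c ((1 : stabW F.iso.subtype W₀) : F.iso) W₀ * ψ₁ 1) := by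
  have h1 : F.hc c (psf F W₀ ψ₁) 1 = ∑ W : F.Om k, flagTerm F.iso.subtype c 1 W.1 * psf F W₀ ψ₁ 1 W.1 := rfl
  have h2 : ∀ W : F.Om k, flagTerm F.iso.subtype c 1 W.1 * psf F W₀ ψ₁ 1 W.1 =
      flagTerm F.iso.subtype c ((1 : stabW F.iso.subtype W₀) : F.iso) W₀ * ψ₁ 1 := by
    intro W
    obtain ⟨x, hx⟩ := F.trans_Om hW₀ W.2
    have h3 : (1 : F.iso) = x * 1 * x⁻¹ := by group
    have h4 := flagTerm_conj F.iso.subtype hcl x 1 W₀
    have h5 := psf_conj hψ x 1 W₀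
    rw [← h3, hx] at h4 h5
    rw [h4, h5]
    congr 1
    exact psf_self hψ 1
  rw [h1, Finset.sum_congr rfl fun W _ => h2 W, Finset.sum_const, Finset.card_univ, ← Nat.card_eq_fintype_card,
    nsmul_eq_mul]

/-- the hypothesis `hset` of `pair_degree` -/
theorem pair_hset [Fintype (F.Om k)] {c : GL (Fin k) K → ℂ} (hcl : IsClassFunction _ c)
    {W₀ : Submodule K V} (hW₀ : W₀ ∈ F.Om k) [Fintype (stabW F.iso.subtype W₀)]
    {ψ₁ : stabW F.iso.subtype W₀ → ℂ} (hψ : IsClassFunction _ ψ₁) (ψ : IrrCharacter (stabW F.iso.subtype W₀))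
    (hψψ : ∀ g : stabW F.iso.subtype W₀, (ψ : stabW F.iso.subtype W₀ → ℂ) g = flagTerm F.iso.subtype c g W₀ * ψ₁ g)
    {X₁ X₂ : IrrCharacter F.iso}
    (hR : F.hc c (psf F W₀ ψ₁) = (X₁ : F.iso → ℂ) + (X₂ : F.iso → ℂ)) (X : IrrCharacter F.iso) :
    classInner (fun x : stabW F.iso.subtype W₀ => (X : F.iso → ℂ) x) (ψ : stabW F.iso.subtype W₀ → ℂ) ≠ 0 ↔
      X = X₁ ∨ X = X₂ := by
  classical
  have : Finite (V ≃ₗ[K] V) := Finite.of_injective (fun e : V ≃ₗ[K] V => (e : V → V)) DFunLike.coe_injective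
  have := Fintype.ofFinite F.iso
  have h1 : (ψ : stabW F.iso.subtype W₀ → ℂ) =
      fun g : stabW F.iso.subtype W₀ => flagTerm F.iso.subtype c g W₀ * ψ₁ g := funext hψψ
  rw [h1, ← classInner_hc hcl hW₀ hψ (Core.isIrr_isClassFunction X.2), hR, Core.classInner_add_right,
    Core.classInner_irr X.2 X₁.2, Core.classInner_irr X.2 X₂.2]
  have e1 : (X : F.iso → ℂ) = (X₁ : F.iso → ℂ) ↔ X = X₁ := Subtype.coe_inj
  have e2 : (X : F.iso → ℂ) = (X₂ : F.iso → ℂ) ↔ X = X₂ := Subtype.coe_inj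
  simp only [e1, e2]
  by_cases h2 : X = X₁
  · rw [if_pos h2]
    by_cases h3 : X = X₂
    · rw [if_pos h3]
      exact iff_of_true (by norm_num) (Or.inl h2)
    · rw [if_neg h3]
      exact iff_of_true (by norm_num) (Or.inl h2)
  · rw [if_neg h2]
    by_cases h3 : X = X₂
    · rw [if_pos h3]
      exact iff_of_true (by norm_num) (Or.inr h3)
    · rw [if_neg h3]
      exact iff_of_false (by norm_num) (by tauto)

/-- the hypothesis `hdeg` of `pair_degree` -/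
theorem pair_hdeg [Fintype (F.Om k)] {c : GL (Fin k) K → ℂ} (hcl : IsClassFunction _ c)
    {W₀ : Submodule K V} (hW₀ : W₀ ∈ F.Om k)
    {ψ₁ : stabW F.iso.subtype W₀ → ℂ} (hψ : IsClassFunction _ ψ₁) (ψ : IrrCharacter (stabW F.iso.subtype W₀))
    (hψψ : ∀ g : stabW F.iso.subtype W₀, (ψ : stabW F.iso.subtype W₀ → ℂ) g = flagTerm F.iso.subtype c g W₀ * ψ₁ g)
    {X₁ X₂ : IrrCharacter F.iso}
    (hR : F.hc c (psf F W₀ ψ₁) = (X₁ : F.iso → ℂ) + (X₂ : F.iso → ℂ)) :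
    ((X₁ : F.iso → ℂ) 1 + (X₂ : F.iso → ℂ) 1) * Nat.card (stabW F.iso.subtype W₀) =
      Nat.card F.iso * (ψ : stabW F.iso.subtype W₀ → ℂ) 1 := by
  have h1 : (X₁ : F.iso → ℂ) 1 + (X₂ : F.iso → ℂ) 1 = F.hc c (psf F W₀ ψ₁) 1 := by
    rw [hR]
    rfl
  rw [h1, hc_one hcl hW₀ hψ, hψψ 1, stab_card hW₀, Nat.cast_mul]
  ring

end Cfsg.Agent.H992.HT
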